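import Cfsg.Agent.Lib.Signalizer.Generation
import Cfsg.Agent.Lib.CoprimeAction.Aut

/-!
# Generation and factorisation by fixed points of maximal subgroups

`A` elementary abelian of order at least `q²` acts on the finite group `G` of order prime to `q`:
invariant subgroups are generated by the fixed points of subgroups of index `q`, and invariant
nilpotent subgroups are ordered products of such fixed points.
-/

set_option autoImplicit false

namespace CfsgLib.DerivedBound

variable {A G : Type*} [Group A] [Finite A] [Group G] [Finite G] [MulDistribMulAction A G]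

/-- A subgroup invariant under the operators. -/
def IsInvariant (A : Type*) {G : Type*} [Group A] [Group G] [MulDistribMulAction A G]
    (H : Subgroup G) : Prop := ∀ a : A, ∀ x ∈ H, a • x ∈ H

/-- The elements fixed by the subgroup `B` of operators. -/
def fixedBy (G : Type*) [Group G] [MulDistribMulAction A G] (B : Subgroup A) : Subgroup G :=
  FixedPoints.subgroup B G

omit [Finite A] [Finite G] in
lemma mem_fixedBy {B : Subgroup A} {x : G} : x ∈ fixedBy G B ↔ ∀ b ∈ B, b • x = x :=
  ⟨fun h b hb => h ⟨b, hb⟩, fun h b => h b b.2⟩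

/-- Generation by the fixed points of subgroups of index `q`. -/
theorem le_of_fixedBy {q : ℕ} [Fact q.Prime] (hAc : ∀ a b : A, a * b = b * a)
    (hAe : ∀ a : A, a ^ q = 1) (hA : q ^ 2 ≤ Nat.card A) (hG : ¬ q ∣ Nat.card G)
    {K H : Subgroup G} (hK : IsInvariant A K)
    (hH : ∀ B : Subgroup A, q * Nat.card B = Nat.card A → K ⊓ fixedBy G B ≤ H) : K ≤ H := by
  let φ : A →* MulAut G := MulDistribMulAction.toMulAut A G
  have hφ : ∀ (a : A) (x : G), φ a x = a • x := fun _ _ => rfl
  have := CfsgLib.CoprimeAction.finite_semidirect φ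
  let i : G →* G ⋊[φ] A := SemidirectProduct.inl
  let j : A →* G ⋊[φ] A := SemidirectProduct.inr
  have hj : Function.Injective j := SemidirectProduct.inr_injective
  have hcj : Nat.card j.range = Nat.card A :=
    (Nat.card_congr (MonoidHom.ofInjective (f := j) hj).toEquiv).symm
  have hE : Cfsg.IsElementaryAbelian q j.range := by
    refine ⟨⟨⟨fun a b => ?_⟩⟩, ?_⟩
    · obtain ⟨_, x, rfl⟩ := a
      obtain ⟨_, y, rfl⟩ := b
      exact Subtype.ext (by simp [← map_mul, hAc x y])
    · rintro _ ⟨x, rfl⟩
      rw [← map_pow, hAe, map_one]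
  have hle : K.map i ≤ H.map i := by
    refine CfsgLib.Signalizer.le_of_hyperplanes (p := q) hE (by rwa [hcj])
      (CfsgLib.CoprimeAction.inr_le_normalizer_map_inl hK)
      (by rw [Subgroup.card_map_of_injective SemidirectProduct.inl_injective]
          exact fun h => hG (h.trans (Subgroup.card_subgroup_dvd_card K))) ?_
    rintro B hB hBc x ⟨⟨k, hk, rfl⟩, hx⟩
    refine ⟨k, hH (B.comap j) ?_ ⟨hk, mem_fixedBy.2 fun b hb => ?_⟩, rfl⟩
    · rw [hcj] at hBc
      rw [← hBc, ← Subgroup.card_map_of_injective hj (K := B.comap j),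
        Subgroup.map_comap_eq_self hB]
    · refine SemidirectProduct.inl_injective (φ := φ) ?_
      have h := Subgroup.mem_centralizer_iff.1 hx (j b) hb
      rw [← hφ, SemidirectProduct.inl_aut, map_inv]
      exact mul_inv_eq_iff_eq_mul.2 h
  exact fun x hx => by
    obtain ⟨y, hy, hyx⟩ := hle (Subgroup.mem_map_of_mem i hx)
    rwa [← SemidirectProduct.inl_injective hyx]

omit [Finite A] [Finite G] in
lemma map_lowerCentralSeries_subtype (P : Subgroup G) (n : ℕ) :
    ((⊤ : Subgroup P).lowerCentralSeries n).map P.subtype = P.lowerCentralSeries n := by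
  induction n with
  | zero => simp [← MonoidHom.range_eq_map]
  | succ n ih =>
    rw [Subgroup.lowerCentralSeries_succ, Subgroup.lowerCentralSeries_succ, Subgroup.map_commutator,
      ih, ← MonoidHom.range_eq_map, Subgroup.range_subtype]

omit [Finite A] [Finite G] in
lemma IsInvariant.map_eq {H : Subgroup G} (h : IsInvariant A H) (a : A) :
    H.map (MulDistribMulAction.toMulAut A G a).toMonoidHom = H := by
  refine le_antisymm (Subgroup.map_le_iff_le_comap.2 fun x hx => h a x hx) fun x hx => ?_
  exact ⟨a⁻¹ • x, h _ _ hx, smul_inv_smul a x⟩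

omit [Finite A] [Finite G] in
lemma IsInvariant.commutator {H K : Subgroup G} (hH : IsInvariant A H) (hK : IsInvariant A K) :
    IsInvariant A ⁅H, K⁆ := fun a x hx => by
  rw [← hH.map_eq a, ← hK.map_eq a, ← Subgroup.map_commutator]
  exact ⟨x, hx, rfl⟩

omit [Finite A] [Finite G] in
lemma IsInvariant.lowerCentralSeries {P : Subgroup G} (hP : IsInvariant A P) (n : ℕ) :
    IsInvariant A (P.lowerCentralSeries n) := by
  induction n with
  | zero => exact hP
  | succ n ih => exact ih.commutator hP

lemma prod_map_mul_of_central {ι M : Type*} [Monoid M] (l : List ι) (f g : ι → M)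
    (hg : ∀ i ∈ l, ∀ y, Commute (g i) y) :
    (l.map fun i => f i * g i).prod = (l.map f).prod * (l.map g).prod := by
  induction l with
  | nil => simp
  | cons i l ih =>
    rw [List.map_cons, List.map_cons, List.map_cons, List.prod_cons, List.prod_cons, List.prod_cons,
      ih fun k hk => hg k (List.mem_cons_of_mem _ hk)]
    simp only [mul_assoc]
    congr 1
    rw [← mul_assoc, (hg i List.mem_cons_self _).eq, mul_assoc]

lemma prod_map_update {ι M : Type*} [Monoid M] [DecidableEq ι] (l : List ι) (hl : l.Nodup) {i : ι}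
    (hi : i ∈ l) (y : M) : (l.map (Function.update (fun _ => (1 : M)) i y)).prod = y := by
  induction l with
  | nil => simp at hi
  | cons k l ih =>
    rw [List.nodup_cons] at hl
    rw [List.map_cons, List.prod_cons]
    by_cases h : i = k
    · subst h
      rw [Function.update_self, List.prod_eq_one, mul_one]
      intro x hx
      obtain ⟨m, hm, rfl⟩ := List.mem_map.1 hx
      rw [Function.update_of_ne (fun h' => hl.1 (by rwa [← h']))]
    · rw [Function.update_of_ne (Ne.symm h), one_mul,
        ih hl.2 ((List.mem_cons.1 hi).resolve_left h)]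

/-- An invariant nilpotent subgroup is the ordered product of the fixed points in it of the
subgroups of index `q`. -/
theorem exists_prod_of_isNilpotent {q : ℕ} [Fact q.Prime] (hAc : ∀ a b : A, a * b = b * a)
    (hAe : ∀ a : A, a ^ q = 1) (hA : q ^ 2 ≤ Nat.card A) (hG : ¬ q ∣ Nat.card G)
    (P : Subgroup G) (hP : IsInvariant A P) [hn : Group.IsNilpotent P] (l : List (Subgroup A))
    (hl : l.Nodup) (hmem : ∀ B : Subgroup A, q * Nat.card B = Nat.card A → B ∈ l) (x : P) :
    ∃ h : Subgroup A → P, (∀ B, (h B : G) ∈ fixedBy G B) ∧ x = (l.map h).prod := by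
  classical
  obtain ⟨N, hN⟩ := Subgroup.nilpotent_iff_lowerCentralSeries.1 hn
  suffices key : ∀ i, ∃ h : Subgroup A → P, (∀ B, (h B : G) ∈ fixedBy G B) ∧
      ((l.map h).prod)⁻¹ * x ∈ (⊤ : Subgroup P).lowerCentralSeries i by
    obtain ⟨h, h1, h2⟩ := key N
    rw [hN, Subgroup.mem_bot, inv_mul_eq_one] at h2
    exact ⟨h, h1, h2.symm⟩
  intro i
  induction i with
  | zero => exact ⟨fun _ => 1, fun B => (fixedBy G B).one_mem, by simp⟩
  | succ i ih =>
    obtain ⟨h, hfix, hy⟩ := ih
    set T := (⊤ : Subgroup P).lowerCentralSeries i with hT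
    set π := QuotientGroup.mk' ((⊤ : Subgroup P).lowerCentralSeries (i + 1)) with hπ
    have hcent : ∀ t ∈ T, ∀ z, Commute (π t) z := fun t ht z => by
      obtain ⟨s, rfl⟩ := QuotientGroup.mk'_surjective _ z
      rw [← commutatorElement_eq_one_iff_commute, ← map_commutatorElement, QuotientGroup.mk'_apply,
        QuotientGroup.eq_one_iff]
      exact Subgroup.commutator_mem_commutator ht (Subgroup.mem_top s)
    -- the elements of `T` congruent to a product of fixed points
    let S : Subgroup P :=
      { carrier := {t | t ∈ T ∧ ∃ c : Subgroup A → P, (∀ B, c B ∈ T ∧ (c B : G) ∈ fixedBy G B) ∧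
          π t = (l.map fun B => π (c B)).prod}
        one_mem' := ⟨T.one_mem, fun _ => 1, fun B => ⟨T.one_mem, (fixedBy G B).one_mem⟩, by
          rw [map_one, List.prod_eq_one]
          intro y hy
          obtain ⟨B, -, rfl⟩ := List.mem_map.1 hy
          exact map_one π⟩
        mul_mem' := by
          rintro t t' ⟨ht, c, hc, hp⟩ ⟨ht', c', hc', hp'⟩
          refine ⟨T.mul_mem ht ht', fun B => c B * c' B, fun B => ⟨T.mul_mem (hc B).1 (hc' B).1,
            (fixedBy G B).mul_mem (hc B).2 (hc' B).2⟩, ?_⟩
          simp only [map_mul]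
          rw [prod_map_mul_of_central l _ _ fun B _ y => hcent _ (hc' B).1 y, hp, hp']
        inv_mem' := by
          rintro t ⟨ht, c, hc, hp⟩
          refine ⟨T.inv_mem ht, fun B => (c B)⁻¹, fun B => ⟨T.inv_mem (hc B).1,
            (fixedBy G B).inv_mem (hc B).2⟩, ?_⟩
          rw [map_inv, inv_eq_iff_mul_eq_one, hp,
            ← prod_map_mul_of_central l _ _ fun B _ y => hcent _ (T.inv_mem (hc B).1) y,
            List.prod_eq_one]
          intro y hy
          obtain ⟨B, -, rfl⟩ := List.mem_map.1 hy
          exact mul_eq_one_iff_eq_inv.2 (by rw [map_inv, inv_inv]) }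
    have hgen : T.map P.subtype ≤ S.map P.subtype := by
      refine le_of_fixedBy hAc hAe hA hG ?_ fun B hB => ?_
      · rw [hT, map_lowerCentralSeries_subtype]
        exact hP.lowerCentralSeries i
      · rintro _ ⟨⟨t, ht, rfl⟩, hfx⟩
        refine ⟨t, ⟨ht, Function.update (fun _ => 1) B t, fun C => ?_, ?_⟩, rfl⟩
        · by_cases hC : C = B
          · subst hC; rw [Function.update_self]; exact ⟨ht, hfx⟩
          · rw [Function.update_of_ne hC]
            exact ⟨T.one_mem, (fixedBy G C).one_mem⟩
        · rw [← Function.comp_def π, ← List.map_map, ← map_list_prod,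
            prod_map_update l hl (hmem B hB)]
    obtain ⟨y, ⟨-, c, hc, hp⟩, hyeq⟩ :=
      hgen (Subgroup.mem_map_of_mem P.subtype hy)
    rw [P.subtype_injective hyeq] at hp
    refine ⟨fun B => h B * c B, fun B => (fixedBy G B).mul_mem (hfix B) (hc B).2, ?_⟩
    rw [← QuotientGroup.eq_one_iff, ← QuotientGroup.mk'_apply, ← hπ, map_mul, map_inv,
      inv_mul_eq_one, map_list_prod, List.map_map]
    have hsplit : (π ∘ fun B => h B * c B) = fun B => π (h B) * π (c B) := funext fun B => map_mul π _ _
    rw [hsplit, prod_map_mul_of_central l _ _ fun B _ y => hcent _ (hc B).1 y, ← hp, map_mul,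
      map_inv, map_list_prod, List.map_map, Function.comp_def, ← mul_assoc, mul_inv_cancel, one_mul]

end CfsgLib.DerivedBound
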