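import Cfsg.Agent.Lib.CoprimeAction.DerivedBound.Gen
import Cfsg.Agent.Lib.CoprimeAction.Sylow

/-!
# A bound for the derived subgroup under coprime action of a group of order `q³`

If the derived groups of the fixed-point groups of all non-trivial elements have order at most `m`,
the derived group of `G` lies in the subgroup `E` generated by the small set of their elements fixed
by maximal operator subgroups; `G / C(E)` and then `E` have bounded order. No solvability is used.
-/

set_option autoImplicit false

namespace CfsgLib.DerivedBound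

open Subgroup
open scoped commutatorElement

/-- The bound on the number of operator subgroups. -/
def numSub (q : ℕ) : ℕ := 2 ^ q ^ 3

/-- The bound on the image of a fixed-point group. -/
def imgBound (q m : ℕ) : ℕ := m ^ (q ^ 3 * m)

/-- The bound on the index of the centraliser. -/
def centBound (q m : ℕ) : ℕ := imgBound q m ^ (numSub q * imgBound q m)

/-- The bound on the derived group. -/
def derivedBound (q m : ℕ) : ℕ :=
  (∑ n ∈ Finset.range (centBound q m * centBound q m + 1), cardCommutatorBound n) *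
    Nat.factorial m ^ (q ^ 3 * m)

section

variable {A G : Type*} [Group A] [Group G] [MulDistribMulAction A G]

/-- The fixed points of one operator. -/
def fixOne (G : Type*) [Group G] [MulDistribMulAction A G] (a : A) : Subgroup G :=
  FixedPoints.subgroup (Subgroup.zpowers a) G

lemma mem_fixOne {a : A} {x : G} : x ∈ fixOne G a ↔ a • x = x := by
  refine ⟨fun h => h ⟨a, mem_zpowers a⟩, fun h => ?_⟩
  rintro ⟨b, hb⟩
  have hle : Subgroup.zpowers a ≤ MulAction.stabilizer A x := Subgroup.zpowers_le.2 h
  exact hle hb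

lemma fixedBy_le_fixOne {B : Subgroup A} {a : A} (ha : a ∈ B) : fixedBy G B ≤ fixOne G a :=
  fun _ hx => mem_fixOne.2 (mem_fixedBy.1 hx a ha)

lemma fixedBy_invariant (hAc : ∀ a b : A, a * b = b * a) (B : Subgroup A) :
    IsInvariant A (fixedBy G B) := fun a x hx => mem_fixedBy.2 fun b hb => by
  rw [smul_smul, hAc b a, ← smul_smul, mem_fixedBy.1 hx b hb]

lemma fixOne_invariant (hAc : ∀ a b : A, a * b = b * a) (a : A) :
    IsInvariant A (fixOne G a) := fun b x hx => mem_fixOne.2 (by
  rw [smul_smul, hAc a b, ← smul_smul, mem_fixOne.1 hx])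

lemma commutator_fixOne_eq (a : A) :
    (_root_.commutator (fixOne G a)).map (fixOne G a).subtype = ⁅fixOne G a, fixOne G a⁆ := by
  rw [commutator_def, Subgroup.map_commutator, ← MonoidHom.range_eq_map, Subgroup.range_subtype]

lemma exists_ne_one_mem_both [Finite A] {q : ℕ} (hq : q.Prime) (hA : Nat.card A = q ^ 3)
    (hAc : ∀ a b : A, a * b = b * a) {B C : Subgroup A} (hB : q * Nat.card B = Nat.card A)
    (hC : q * Nat.card C = Nat.card A) : ∃ a : A, a ≠ 1 ∧ a ∈ B ∧ a ∈ C := by
  by_contra! h
  have hinj : Function.Injective (fun p : B × C => (p.1 : A) * p.2) := by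
    rintro ⟨b, c⟩ ⟨b', c'⟩ heq
    have h1 : (b'⁻¹ * b : A) = c' * (c : A)⁻¹ := by
      rw [eq_mul_inv_iff_mul_eq, mul_assoc]
      simp only at heq
      rw [heq, Subgroup.coe_inv, inv_mul_cancel_left]
    have h2 : (b'⁻¹ * b : A) = 1 := by
      by_contra hne
      exact h _ hne (B.mul_mem (B.inv_mem b'.2) b.2)
        (by rw [h1]; exact C.mul_mem c'.2 (C.inv_mem c.2))
    have hb : b = b' := Subtype.ext (inv_mul_eq_one.1 h2).symm
    rw [h2, eq_comm, mul_inv_eq_one] at h1
    exact Prod.ext hb (Subtype.ext h1.symm)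
  have h1 := Nat.card_le_card_of_injective _ hinj
  rw [Nat.card_prod, hA] at h1
  rw [hA, pow_succ', Nat.mul_left_cancel_iff hq.pos] at hB hC
  rw [hB, hC] at h1
  have : q ^ 3 < q ^ 2 * q ^ 2 := by
    rw [← pow_add]; exact Nat.pow_lt_pow_right hq.one_lt (by norm_num)
  omega

end

lemma commutator_mul_central {M : Type*} [Group M] {u w z z' : M} (hz : ∀ g, Commute z g)
    (hz' : ∀ g, Commute z' g) : ⁅u * z, w * z'⁆ = ⁅u, w⁆ := by
  simp only [commutatorElement_def, mul_inv_rev]
  calc u * z * (w * z') * (z⁻¹ * u⁻¹) * (z'⁻¹ * w⁻¹)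
      = u * (z * w) * (z' * (z⁻¹ * u⁻¹)) * (z'⁻¹ * w⁻¹) := by group
    _ = u * (w * z) * (z⁻¹ * u⁻¹ * z') * (z'⁻¹ * w⁻¹) := by rw [(hz w).eq, (hz' _).eq]
    _ = u * w * u⁻¹ * w⁻¹ := by group

theorem card_commutator_le {A G : Type*} [Group A] [Finite A] [Group G] [Finite G]
    [MulDistribMulAction A G] {q m : ℕ} (hq : q.Prime) (hA : Nat.card A = q ^ 3)
    (hAc : ∀ a b : A, a * b = b * a) (hAe : ∀ a : A, a ^ q = 1) (hG : ¬ q ∣ Nat.card G)
    (hm : ∀ a : A, a ≠ 1 → Nat.card (_root_.commutator (fixOne G a)) ≤ m) :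
    Nat.card (_root_.commutator G) ≤ derivedBound q m := by
  classical
  have := Fact.mk hq
  have hA2 : q ^ 2 ≤ Nat.card A := hA ▸ Nat.pow_le_pow_right hq.pos (by norm_num)
  obtain ⟨a₀, ha₀⟩ : ∃ a : A, a ≠ 1 := by
    have : Nontrivial A := Finite.one_lt_card_iff_nontrivial.1 (by
      rw [hA]; exact Nat.one_lt_pow (by norm_num) hq.one_lt)
    exact exists_ne 1
  have hm1 : 1 ≤ m := le_trans Nat.card_pos (hm a₀ ha₀)
  have : Fintype G := Fintype.ofFinite G
  let Hyp : Subgroup A → Prop := fun B => q * Nat.card B = Nat.card A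
  let D : A → Subgroup G := fun a => ⁅fixOne G a, fixOne G a⁆
  have hD : ∀ a : A, a ≠ 1 → Nat.card (D a) ≤ m := fun a ha => by
    simp only [D]
    rw [← commutator_fixOne_eq, Subgroup.card_map_of_injective (fixOne G a).subtype_injective]
    exact hm a ha
  let Fs : Set G := {x | ∃ a : A, a ≠ 1 ∧ x ∈ D a ∧ ∃ B, Hyp B ∧ x ∈ fixedBy G B}
  have hFcard : Nat.card Fs ≤ q ^ 3 * m := by
    have : Fintype A := Fintype.ofFinite A
    have hsub : Fs.toFinset ⊆ (Finset.univ.filter (fun a : A => a ≠ 1)).biUnion
        (fun a => (D a : Set G).toFinset) := by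
      intro x hx
      obtain ⟨a, ha, hxa, -⟩ := Set.mem_toFinset.1 hx
      exact Finset.mem_biUnion.2 ⟨a, by simp [ha], Set.mem_toFinset.2 hxa⟩
    rw [Nat.card_eq_fintype_card, ← Set.toFinset_card]
    refine (Finset.card_le_card hsub).trans ((Finset.card_biUnion_le_card_mul _ _ m fun a ha => ?_).trans ?_)
    · rw [Set.toFinset_card, ← Nat.card_eq_fintype_card]
      exact hD a (Finset.mem_filter.1 ha).2
    · refine Nat.mul_le_mul_right m ((Finset.card_filter_le _ _).trans ?_)
      rw [Finset.card_univ, ← Nat.card_eq_fintype_card, hA]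
  set E := closure Fs with hE
  have hfix : ∀ a : A, a ≠ 1 → D a ≤ E := fun a ha => by
    refine le_of_fixedBy hAc hAe hA2 hG ((fixOne_invariant hAc a).commutator (fixOne_invariant hAc a))
      fun B hB x hx => Subgroup.subset_closure ⟨a, ha, hx.1, B, hB, hx.2⟩
  have htop : ∀ H : Subgroup G, (∀ B, Hyp B → fixedBy G B ≤ H) → H = ⊤ := fun H hH =>
    eq_top_iff.2 (le_of_fixedBy hAc hAe hA2 hG (fun _ _ _ => trivial)
      fun B hB => inf_le_right.trans (hH B hB))
  have hcomm : ∀ B C, Hyp B → Hyp C → ∀ x ∈ fixedBy G B, ∀ y ∈ fixedBy G C,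
      ∃ a : A, a ≠ 1 ∧ ⁅x, y⁆ ∈ D a := by
    intro B C hB hC x hx y hy
    obtain ⟨a, ha, haB, haC⟩ := exists_ne_one_mem_both hq hA hAc hB hC
    exact ⟨a, ha, commutator_mem_commutator (fixedBy_le_fixOne haB hx) (fixedBy_le_fixOne haC hy)⟩
  have hEnorm : E.Normal := by
    refine Subgroup.normalizer_eq_top_iff.1 (htop _ fun B hB x hx => ?_)
    have hle : E ≤ E.comap (MulAut.conj x).toMonoidHom := by
      rw [hE]
      refine (Subgroup.closure_le _).2 fun f hf => ?_
      obtain ⟨a, ha, hfa, C, hC, hfC⟩ := hf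
      obtain ⟨b, hb, hb'⟩ := hcomm B C hB hC x hx f hfC
      change x * f * x⁻¹ ∈ E
      rw [show x * f * x⁻¹ = ⁅x, f⁆ * f by simp [commutatorElement_def]]
      exact E.mul_mem (hfix b hb hb') (Subgroup.subset_closure ⟨a, ha, hfa, C, hC, hfC⟩)
    exact CfsgLib.CoprimeAction.mem_normalizer_of_conj_mem fun y hy => hle hy
  have := hEnorm
  -- the derived group lies in `E`
  have hGE : _root_.commutator G ≤ E := by
    set π := QuotientGroup.mk' E
    have hcen : ∀ B, Hyp B → fixedBy G B ≤ (Subgroup.center (G ⧸ E)).comap π := by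
      intro B hB x hx
      have h1 : (centralizer {π x}).comap π = ⊤ := htop _ fun C hC y hy => by
        obtain ⟨a, ha, ha'⟩ := hcomm B C hB hC x hx y hy
        rw [Subgroup.mem_comap, Subgroup.mem_centralizer_singleton_iff, eq_comm,
          ← commute_iff_eq, ← commutatorElement_eq_one_iff_commute, ← map_commutatorElement]
        exact (QuotientGroup.eq_one_iff _).2 (hfix a ha ha')
      refine Subgroup.mem_comap.2 (Subgroup.mem_center_iff.2 fun z => ?_)
      obtain ⟨y, rfl⟩ := QuotientGroup.mk'_surjective E z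
      exact Subgroup.mem_centralizer_singleton_iff.1 (Subgroup.mem_comap.1 (h1 ▸ mem_top y))
    have h2 := htop _ hcen
    rw [_root_.commutator_def, Subgroup.commutator_le]
    intro x _ y _
    rw [← QuotientGroup.eq_one_iff, ← QuotientGroup.mk'_apply, map_commutatorElement,
      commutatorElement_eq_one_iff_commute]
    exact (Subgroup.mem_center_iff.1 (Subgroup.mem_comap.1 (h2 ▸ mem_top x) :) (π y)).symm
  -- the centraliser of `E`
  set K := centralizer (E : Set G) with hK
  have hKF : K = centralizer Fs := by rw [hK, hE, Subgroup.centralizer_closure]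
  set π := QuotientGroup.mk' K with hπdef
  have himg : ∀ B, Hyp B → Nat.card ((fixedBy G B).map π) ≤ imgBound q m := by
    intro B hB
    have hd : ∀ f : Fs, ∃ a : A, a ≠ 1 ∧ ∀ x ∈ fixedBy G B, ⁅x, (f : G)⁆ ∈ D a := by
      rintro ⟨f, a, -, -, C, hC, hfC⟩
      obtain ⟨b, hb, hbB, hbC⟩ := exists_ne_one_mem_both hq hA hAc hB hC
      exact ⟨b, hb, fun x hx =>
        commutator_mem_commutator (fixedBy_le_fixOne hbB hx) (fixedBy_le_fixOne hbC hfC)⟩
    choose d hd1 hd2 using hd
    have hrep : ∀ y : (fixedBy G B).map π, ∃ x ∈ fixedBy G B, π x = y := fun y => y.2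
    choose r hr1 hr2 using hrep
    let Φ : (fixedBy G B).map π → ((f : Fs) → D (d f)) := fun y f =>
      ⟨⁅r y, (f : G)⁆, hd2 f _ (hr1 y)⟩
    have hΦ : Function.Injective Φ := by
      intro y y' h
      apply Subtype.ext
      rw [← hr2 y, ← hr2 y', hπdef, QuotientGroup.mk'_apply, QuotientGroup.mk'_apply, QuotientGroup.eq,
        hKF, Subgroup.mem_centralizer_iff]
      intro f hf
      have h1 : ⁅r y, f⁆ = ⁅r y', f⁆ := congrArg Subtype.val (congrFun h ⟨f, hf⟩)
      simp only [commutatorElement_def, mul_left_inj] at h1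
      calc f * ((r y)⁻¹ * r y') = (r y)⁻¹ * (r y * f * (r y)⁻¹) * r y' := by group
        _ = (r y)⁻¹ * (r y' * f * (r y')⁻¹) * r y' := by rw [h1]
        _ = (r y)⁻¹ * r y' * f := by group
    have : Fintype Fs := Fintype.ofFinite _
    refine (Nat.card_le_card_of_injective Φ hΦ).trans ?_
    rw [Nat.card_pi]
    refine (Finset.prod_le_pow_card _ _ m fun f _ => hD _ (hd1 f)).trans ?_
    rw [Finset.card_univ, ← Nat.card_eq_fintype_card]
    exact Nat.pow_le_pow_right hm1 hFcard
  have hM1 : 1 ≤ imgBound q m := Nat.one_le_pow _ _ hm1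
  -- Sylow subgroups of the quotient
  have hsyl : ∀ p : ℕ, p.Prime → p ∣ Nat.card (G ⧸ K) →
      p ≤ imgBound q m ∧
        p ^ (Nat.card (G ⧸ K)).factorization p ≤ imgBound q m ^ numSub q := by
    intro p hp hpd
    have := Fact.mk hp
    let φ : A →* MulAut G := MulDistribMulAction.toMulAut A G
    obtain ⟨P, hPA⟩ : ∃ P : Sylow p G, IsInvariant A (P : Subgroup G) := by
      have := CfsgLib.CoprimeAction.finite_semidirect φ
      have htopinv : ∀ a : A, ∀ x ∈ (⊤ : Subgroup G), φ a x ∈ (⊤ : Subgroup G) :=
        fun _ _ _ => trivial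
      have hsolv : Group.IsSolvable (SemidirectProduct.inr : A →* G ⋊[φ] A).range :=
        Group.isSolvable_of_comm fun x y => by
          obtain ⟨_, a, rfl⟩ := x
          obtain ⟨_, b, rfl⟩ := y
          exact Subtype.ext (by simp [← map_mul, hAc a b])
      have hcop : (Nat.card (SemidirectProduct.inr : A →* G ⋊[φ] A).range).Coprime
          (Nat.card ((⊤ : Subgroup G).map (SemidirectProduct.inl : G →* G ⋊[φ] A))) := by
        rw [Subgroup.card_map_of_injective SemidirectProduct.inl_injective, Subgroup.card_top,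
          Nat.card_congr (MonoidHom.ofInjective (f := (SemidirectProduct.inr : A →* G ⋊[φ] A))
            SemidirectProduct.inr_injective).toEquiv.symm, hA]
        exact Nat.Coprime.pow_left _ (hq.coprime_iff_not_dvd.2 hG)
      obtain ⟨P, hP⟩ := CfsgLib.CoprimeAction.exists_invariant_sylow
        (CfsgLib.CoprimeAction.inr_le_normalizer_map_inl htopinv) hcop (Or.inl hsolv) p
      let e : G ≃* ((⊤ : Subgroup G).map (SemidirectProduct.inl : G →* G ⋊[φ] A)) :=
        Subgroup.topEquiv.symm.trans
          ((⊤ : Subgroup G).equivMapOfInjective _ SemidirectProduct.inl_injective)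
      refine ⟨P.comapOfInjective e.toMonoidHom e.injective (by
        rw [MonoidHom.range_eq_top.2 e.surjective]; exact le_top), fun a x hx => ?_⟩
      have hx' : (e x : G ⋊[φ] A) ∈ (P : Subgroup _).map (Subgroup.subtype _) :=
        ⟨e x, hx, rfl⟩
      have h := (Subgroup.mem_normalizer_iff.1 (hP ⟨a, rfl⟩) _).1 hx'
      obtain ⟨z, hz, hze⟩ := h
      change e (a • x) ∈ (P : Subgroup _)
      suffices hez : e (a • x) = z by rw [hez]; exact hz
      refine Subtype.ext (Eq.symm (hze.trans ?_))
      change SemidirectProduct.inr a * SemidirectProduct.inl x * (SemidirectProduct.inr a)⁻¹ =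
        SemidirectProduct.inl (a • x)
      rw [← map_inv, ← SemidirectProduct.inl_aut]
      rfl
    have : Group.IsNilpotent (P : Subgroup G) := P.2.isNilpotent
    let l : List (Subgroup A) := (Set.toFinite {B : Subgroup A | Hyp B}).toFinset.toList
    have hl : ∀ B, B ∈ l ↔ Hyp B := fun B => by simp [l]
    have hlen : l.length ≤ numSub q := by
      have : Fintype A := Fintype.ofFinite A
      have : Fintype (Subgroup A) := Fintype.ofFinite _
      refine (Finset.length_toList _).trans_le ((Finset.card_le_univ _).trans ?_)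
      rw [← Nat.card_eq_fintype_card, numSub, ← hA]
      refine (Nat.card_le_card_of_injective (SetLike.coe : Subgroup A → Set A)
        SetLike.coe_injective).trans ?_
      rw [Nat.card_eq_fintype_card (α := Set A), Fintype.card_set, Nat.card_eq_fintype_card]
    have hsurj : ∀ x ∈ (P : Subgroup G), ∃ c : ∀ i : Fin l.length, (fixedBy G (l.get i)).map π,
        π x = (List.ofFn fun i => (c i : G ⧸ K)).prod := by
      intro x hx
      obtain ⟨h, hh, he⟩ := exists_prod_of_isNilpotent hAc hAe hA2 hG (P : Subgroup G) hPA l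
        (Finset.nodup_toList _) (fun B hB => (hl B).2 hB) ⟨x, hx⟩
      refine ⟨fun i => ⟨π (h (l.get i)), Subgroup.mem_map_of_mem π (hh _)⟩, ?_⟩
      have hx' : x = ((P : Subgroup G).subtype ((l.map h).prod)) := congrArg Subtype.val he
      rw [hx', map_list_prod, map_list_prod, List.map_map, List.map_map]
      conv_lhs => rw [← List.ofFn_get l, List.map_ofFn]
      rfl
    set Pbar := P.mapSurjective (f := π) (QuotientGroup.mk'_surjective K) with hPbar
    have hcardPbar : Nat.card Pbar ≤ imgBound q m ^ numSub q := by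
      have hc : Nat.card ((Pbar : Subgroup (G ⧸ K))) ≤
          Nat.card (∀ i : Fin l.length, (fixedBy G (l.get i)).map π) := by
        have : ∀ y : (Pbar : Subgroup (G ⧸ K)), ∃ c : ∀ i : Fin l.length, (fixedBy G (l.get i)).map π,
            (y : G ⧸ K) = (List.ofFn fun i => (c i : G ⧸ K)).prod := by
          rintro ⟨y, hy⟩
          rw [hPbar, Sylow.coe_mapSurjective] at hy
          obtain ⟨x, hx, rfl⟩ := hy
          exact hsurj x hx
        choose c hc using this
        exact Nat.card_le_card_of_injective c fun y y' h => Subtype.ext (by rw [hc y, hc y', h])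
      refine hc.trans ?_
      rw [Nat.card_pi]
      refine (Finset.prod_le_pow_card _ _ (imgBound q m) fun i _ =>
        himg _ ((hl _).1 (List.get_mem l i))).trans ?_
      rw [Finset.card_univ, Fintype.card_fin]
      exact Nat.pow_le_pow_right hM1 hlen
    refine ⟨?_, by rwa [Pbar.card_eq_multiplicity] at hcardPbar⟩
    by_contra hlt
    -- a trivial image of all factors gives a trivial Sylow subgroup
    have hall : ∀ x ∈ (P : Subgroup G), π x = 1 := by
      intro x hx
      obtain ⟨h, hh, he⟩ := exists_prod_of_isNilpotent hAc hAe hA2 hG (P : Subgroup G) hPA l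
        (Finset.nodup_toList _) (fun B hB => (hl B).2 hB) ⟨x, hx⟩
      have hx' : x = ((P : Subgroup G).subtype ((l.map h).prod)) := congrArg Subtype.val he
      rw [hx', map_list_prod, map_list_prod, List.map_map, List.map_map]
      refine List.prod_eq_one fun y hy => ?_
      obtain ⟨B, hB, rfl⟩ := List.mem_map.1 hy
      by_contra hne
      obtain ⟨n, hn⟩ := P.2 (h B)
      have hdp : p ∣ orderOf (π (h B : G)) := by
        obtain ⟨k, -, hk⟩ := (Nat.dvd_prime_pow hp).1 (orderOf_dvd_of_pow_eq_one
          (x := π (h B : G)) (n := p ^ n) (by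
            rw [← map_pow, ← Subgroup.coe_pow, hn, Subgroup.coe_one, map_one]))
        rw [hk]
        refine dvd_pow_self p fun h0 => hne ?_
        rw [h0, pow_zero, orderOf_eq_one_iff] at hk
        exact hk
      refine hlt ((Nat.le_of_dvd Nat.card_pos (hdp.trans
        (Subgroup.orderOf_dvd_natCard _ (Subgroup.mem_map_of_mem π (hh B))))).trans
          (himg B ((hl B).1 hB)))
    have hbot : (Pbar : Subgroup (G ⧸ K)) = ⊥ := by
      rw [hPbar, Sylow.coe_mapSurjective, Subgroup.eq_bot_iff_forall]
      rintro _ ⟨x, hx, rfl⟩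
      exact hall x hx
    have := Pbar.dvd_card_of_dvd_card hpd
    rw [hbot, Subgroup.card_bot, Nat.dvd_one] at this
    exact hp.ne_one this
  have hquot : Nat.card (G ⧸ K) ≤ centBound q m := by
    have hne : Nat.card (G ⧸ K) ≠ 0 := Nat.card_pos.ne'
    conv_lhs => rw [← Nat.prod_factorization_pow_eq_self hne]
    rw [Finsupp.prod, Nat.support_factorization]
    refine (Finset.prod_le_pow_card _ _ (imgBound q m ^ numSub q) fun p hp => ?_).trans ?_
    · exact (hsyl p (Nat.prime_of_mem_primeFactors hp) (Nat.dvd_of_mem_primeFactors hp)).2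
    · rw [centBound, pow_mul]
      refine Nat.pow_le_pow_right (Nat.one_le_pow _ _ hM1) ?_
      refine (Finset.card_le_card (t := Finset.Icc 1 (imgBound q m)) fun p hp => ?_).trans (by simp)
      have hp' := Nat.prime_of_mem_primeFactors hp
      exact Finset.mem_Icc.2 ⟨hp'.one_lt.le, (hsyl p hp' (Nat.dvd_of_mem_primeFactors hp)).1⟩
  -- Schur
  have hset : Nat.card (commutatorSet E) ≤ centBound q m * centBound q m := by
    have hrep : ∀ c : commutatorSet E, ∃ x y : E, ⁅x, y⁆ = (c : E) := fun c => c.2
    choose x y hxy using hrep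
    refine (Nat.card_le_card_of_injective (fun c => (π (x c : G), π (y c : G))) ?_).trans ?_
    · intro c c' h
      simp only [Prod.mk.injEq] at h
      have hcen : ∀ u u' : E, π (u : G) = π u' → ∀ w : E, Commute (u⁻¹ * u') w := by
        intro u u' hu w
        rw [hπdef, QuotientGroup.mk'_apply, QuotientGroup.mk'_apply, QuotientGroup.eq, hK,
          Subgroup.mem_centralizer_iff] at hu
        exact Subtype.ext ((hu w w.2).symm)
      have h1 := hcen _ _ h.1
      have h2 := hcen _ _ h.2
      apply Subtype.ext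
      rw [← hxy c, ← hxy c']
      conv_rhs => rw [← mul_inv_cancel_left (x c) (x c'), ← mul_inv_cancel_left (y c) (y c')]
      exact (commutator_mul_central h1 h2).symm
    · rw [Nat.card_prod]
      exact Nat.mul_le_mul hquot hquot
  have hE' : Nat.card (_root_.commutator E) ≤
      ∑ n ∈ Finset.range (centBound q m * centBound q m + 1), cardCommutatorBound n :=
    (card_commutator_le_of_finite_commutatorSet E).trans
      (Finset.single_le_sum (fun _ _ => Nat.zero_le _) (Finset.mem_range.2 (by omega)))
  have hab : Nat.card (Abelianization E) ≤ Nat.factorial m ^ (q ^ 3 * m) := by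
    have : Fintype Fs := Fintype.ofFinite _
    let S : Finset (Abelianization E) :=
      Finset.univ.image fun f : Fs => Abelianization.of ⟨(f : G), Subgroup.subset_closure f.2⟩
    have hS : Subgroup.closure (S : Set (Abelianization E)) = ⊤ := by
      have h1 : Subgroup.closure (((↑) : E → G) ⁻¹' Fs) = (⊤ : Subgroup E) := by
        rw [hE]; exact Subgroup.closure_closure_coe_preimage
      rw [eq_top_iff, ← MonoidHom.range_eq_top.2
        (show Function.Surjective (Abelianization.of (G := E)) from QuotientGroup.mk_surjective),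
        MonoidHom.range_eq_map, ← h1, MonoidHom.map_closure]
      refine Subgroup.closure_mono ?_
      rintro _ ⟨f, hf, rfl⟩
      exact Finset.mem_coe.2 (Finset.mem_image.2 ⟨⟨f, hf⟩, Finset.mem_univ _, rfl⟩)
    have hexp : ∀ z : Abelianization E, z ^ Nat.factorial m = 1 := by
      intro z
      have hle : Subgroup.closure (S : Set (Abelianization E)) ≤
          (powMonoidHom (Nat.factorial m) : Abelianization E →* Abelianization E).ker := by
        refine (Subgroup.closure_le _).2 fun s hs => ?_
        obtain ⟨⟨f, hf⟩, -, rfl⟩ := Finset.mem_image.1 (Finset.mem_coe.1 hs)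
        obtain ⟨a, ha, hfa, hB⟩ := hf
        have hd : orderOf f ∣ Nat.factorial m :=
          Nat.dvd_factorial (orderOf_pos f)
            ((Nat.le_of_dvd Nat.card_pos (Subgroup.orderOf_dvd_natCard _ hfa)).trans (hD a ha))
        change Abelianization.of _ ^ Nat.factorial m = 1
        rw [← map_pow]
        convert map_one (Abelianization.of (G := E))
        exact Subtype.ext (by simpa using orderOf_dvd_iff_pow_eq_one.1 hd)
      exact (hle (hS ▸ Subgroup.mem_top z) :)
    have hrank : Group.rank (Abelianization E) ≤ q ^ 3 * m := by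
      refine (Group.rank_le hS).trans (Finset.card_image_le.trans ?_)
      rw [Finset.card_univ, ← Nat.card_eq_fintype_card]
      exact hFcard
    exact (Nat.le_of_dvd (pow_pos (Nat.factorial_pos m) _)
      (card_dvd_exponent_pow_rank' _ hexp)).trans (Nat.pow_le_pow_right (Nat.factorial_pos m) hrank)
  calc Nat.card (_root_.commutator G) ≤ Nat.card E :=
        Nat.le_of_dvd Nat.card_pos (Subgroup.card_dvd_of_le hGE)
    _ = Nat.card (Abelianization E) * Nat.card (_root_.commutator E) :=
        Subgroup.card_eq_card_quotient_mul_card_subgroup _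
    _ ≤ derivedBound q m := by
        rw [derivedBound, mul_comm]
        exact Nat.mul_le_mul hE' hab

end CfsgLib.DerivedBound
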